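import Mathlib

/-!
If `2 ≤ a ≤ b` and no prime `≤ b` divides `(a + b).choose a`, then `(a, b) = (3, 4)`.
-/

set_option autoImplicit false

namespace Cfsg.Agent.Arith.BinomialSmallPrime

theorem factorization_factorial_two : ∀ m : ℕ, 1 ≤ m →
    m.factorial.factorization 2 + 1 ≤ m ∧ (m.factorial.factorization 2 + 1 = m → ∃ t, m = 2 ^ t) := by
  haveI : Fact (Nat.Prime 2) := ⟨Nat.prime_two⟩
  intro m
  induction m using Nat.strong_induction_on with
  | _ m ih =>
    intro hm
    rcases Nat.lt_or_ge m 2 with h | h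
    · obtain rfl : m = 1 := by omega
      simp
      exact ⟨0, rfl⟩
    obtain ⟨h1, h2⟩ := ih (m / 2) (by omega) (by omega)
    have hv : m.factorial.factorization 2 = (m / 2).factorial.factorization 2 + m / 2 := by
      rw [Nat.factorization_def _ Nat.prime_two, Nat.factorization_def _ Nat.prime_two]
      conv_lhs => rw [← Nat.div_add_mod m 2]
      rw [padicValNat_factorial_mul_add _ (Nat.mod_lt _ (by norm_num)), padicValNat_factorial_mul]
    refine ⟨by omega, fun he => ?_⟩
    obtain ⟨t, ht⟩ := h2 (by omega)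
    exact ⟨t + 1, by rw [pow_succ]; omega⟩

/-- An odd arithmetic progression of step two contains the odd part of a factorial. -/
theorem dvd_prod_progression {u : ℕ} (hu : Odd u) {m : ℕ} (hum : u ∣ m.factorial) (B : ℕ) :
    u ∣ ∏ i ∈ Finset.range m, (2 * B + 1 + 2 * i) := by
  obtain ⟨l, hl⟩ := hu
  have key : ∀ m : ℕ, (∏ i ∈ Finset.range m, (2 * B + 1 + 2 * i)) ≡
      2 ^ m * (B + l + 1).ascFactorial m [MOD u] := by
    intro m
    induction m with
    | zero => simp [Nat.ModEq]
    | succ m ih =>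
      rw [Finset.prod_range_succ, Nat.ascFactorial_succ, pow_succ,
        show 2 ^ m * 2 * ((B + l + 1 + m) * (B + l + 1).ascFactorial m) =
          2 ^ m * (B + l + 1).ascFactorial m * (2 * B + 1 + 2 * m + (2 * l + 1)) by ring, ← hl]
      exact ih.mul (Nat.ModEq.symm Nat.add_modEq_right)
  refine Nat.modEq_zero_iff_dvd.1 ((key m).trans (Nat.modEq_zero_iff_dvd.2 ?_))
  exact dvd_mul_of_dvd_right (hum.trans (Nat.factorial_dvd_ascFactorial _ _)) _

theorem ascFactorial_split (B : ℕ) : ∀ h : ℕ, (2 * B + 1).ascFactorial (2 * h + 1) =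
    2 ^ h * (B + 1).ascFactorial h * ∏ i ∈ Finset.range (h + 1), (2 * B + 1 + 2 * i) := by
  intro h
  induction h with
  | zero => simp [Nat.ascFactorial_succ, Nat.ascFactorial_zero]
  | succ h ih =>
    rw [show 2 * (h + 1) + 1 = 2 * h + 1 + 1 + 1 from rfl, Nat.ascFactorial_succ, Nat.ascFactorial_succ,
      ih, Finset.prod_range_succ _ (h + 1), Nat.ascFactorial_succ, pow_succ]
    ring

theorem ascFactorial_strict {c d : ℕ} (hc : 1 ≤ c) (hcd : c < d) : ∀ h : ℕ, 1 ≤ h →
    c.ascFactorial h < d.ascFactorial h := by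
  intro h
  induction h with
  | zero => omega
  | succ h ih =>
    intro _
    rw [Nat.ascFactorial_succ, Nat.ascFactorial_succ]
    rcases Nat.eq_zero_or_pos h with rfl | hp
    · simp [Nat.ascFactorial_zero]; omega
    · exact Nat.mul_lt_mul'' (by omega) (ih hp)

theorem dvd_choose_of_carry {q i a b : ℕ} (hq : q.Prime) (hi : 1 ≤ i)
    (h : q ^ i ≤ a % q ^ i + b % q ^ i) : q ∣ (a + b).choose a := by
  refine Nat.dvd_of_factorization_pos ?_
  rw [Nat.add_comm a b, Nat.factorization_choose' hq (b := Nat.log q (b + a) + i + 1) (by omega)]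
  exact (Finset.card_pos.2 ⟨i, Finset.mem_filter.2 ⟨Finset.mem_Ico.2 ⟨hi, by omega⟩, h⟩⟩).ne'

theorem eq_three_four {a b : ℕ} (ha : 2 ≤ a) (hab : a ≤ b)
    (h : ∀ q, q.Prime → q ≤ b → ¬ q ∣ (a + b).choose a) : a = 3 ∧ b = 4 := by
  set C := (a + b).choose a with hC
  have hCpos : 0 < C := Nat.choose_pos (by omega)
  have hn : (a + b).Prime := by
    by_contra hnp
    have hcop : (a + b).Coprime C := Nat.coprime_of_dvd fun q hq hqn hqC => by
      obtain ⟨k, hk⟩ := hqn
      have : 2 ≤ k := by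
        rcases Nat.lt_or_ge k 2 with h' | h'
        · interval_cases k
          · omega
          · exact absurd (by rw [hk, mul_one]; exact hq) hnp
        · exact h'
      exact h q hq (by nlinarith) hqC
    have e : (a + b) * (a + b - 1).choose (a - 1) = C * a := by
      obtain ⟨a', rfl⟩ : ∃ a', a = a' + 1 := ⟨a - 1, by omega⟩
      have := Nat.add_one_mul_choose_eq (a' + b) a'
      rw [hC, show a' + 1 + b = a' + b + 1 by omega]
      simpa using this
    have := Nat.le_of_dvd (by omega) (hcop.dvd_of_dvd_mul_left ⟨_, e.symm⟩)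
    omega
  have hb1 : (b + 1).Prime := by
    by_contra hnp
    have hcop : (b + 1).Coprime C := Nat.coprime_of_dvd fun q hq hqn hqC => by
      have hle := Nat.le_of_dvd (by omega) hqn
      rcases Nat.lt_or_ge q (b + 1) with h' | h'
      · exact h q hq (by omega) hqC
      · exact hnp (by rw [show b + 1 = q by omega]; exact hq)
    have e : C * a = (a + b).choose (a - 1) * (b + 1) := by
      obtain ⟨a', rfl⟩ : ∃ a', a = a' + 1 := ⟨a - 1, by omega⟩
      have := Nat.choose_succ_right_eq (a' + 1 + b) a'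
      rw [show a' + 1 + b - a' = b + 1 by omega] at this
      simpa [hC] using this
    have := Nat.le_of_dvd (by omega) (hcop.dvd_of_dvd_mul_left (show b + 1 ∣ C * a from ⟨_, e.trans (mul_comm _ _)⟩))
    omega
  obtain ⟨B, hB⟩ : Even b := by
    rcases Nat.Prime.eq_two_or_odd hb1 with h' | h'
    · omega
    · exact ⟨b / 2, by omega⟩
  obtain ⟨x, hx⟩ : Odd (a + b) := hn.odd_of_ne_two (by omega)
  obtain ⟨t0, ht0⟩ : Odd a := ⟨x - B, by omega⟩
  obtain rfl : b = 2 * B := by omega
  subst ht0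
  set m := t0 + 1 with hm
  set O := ∏ i ∈ Finset.range m, (2 * B + 1 + 2 * i) with hO
  set v := m.factorial.factorization 2 with hv
  set u := m.factorial / 2 ^ v with hu
  have hum : 2 ^ v * u = m.factorial := Nat.ordProj_mul_ordCompl_eq_self _ 2
  have huodd : Odd u := Nat.not_even_iff_odd.1 fun he =>
    Nat.not_dvd_ordCompl Nat.prime_two (Nat.factorial_ne_zero m) he.two_dvd
  have huO : u ∣ O := dvd_prod_progression huodd ⟨2 ^ v, by rw [← hum]; ring⟩ B
  have hbig : ∀ q, q.Prime → q ∣ C → 2 * B < q := fun q hq hqC =>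
    not_le.1 fun hle => h q hq hle hqC
  have hsq : Squarefree C := by
    rw [Nat.squarefree_iff_factorization_le_one hCpos.ne']
    intro q
    rcases Nat.eq_zero_or_pos (C.factorization q) with h0 | h0
    · omega
    have hq := Nat.prime_of_mem_primeFactors
      (Nat.support_factorization C ▸ Finsupp.mem_support_iff.2 h0.ne')
    refine Nat.factorization_choose_le_one ?_
    have := hbig q hq (Nat.dvd_of_factorization_pos h0.ne')
    nlinarith
  have hCO : C ∣ O := by
    rw [← Nat.prod_primeFactors_of_squarefree hsq]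
    refine Finset.prod_primes_dvd _ (fun q hq => (Nat.prime_of_mem_primeFactors hq).prime) fun q hq => ?_
    have hq1 := Nat.prime_of_mem_primeFactors hq
    have hq2 := hbig q hq1 (Nat.dvd_of_mem_primeFactors hq)
    have hq3 : q ≤ 2 * t0 + 1 + 2 * B := by
      by_contra hlt
      push Not at hlt
      have h0 := Nat.factorization_eq_zero_of_not_dvd
        (fun hd => hlt.not_ge ((hq1.dvd_factorial).1 (hd : q ∣ (2 * t0 + 1 + 2 * B).factorial)))
      have : q ∣ (2 * t0 + 1 + 2 * B).factorial :=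
        (Nat.dvd_of_mem_primeFactors hq).trans
          (by rw [← Nat.choose_mul_factorial_mul_factorial (show 2 * t0 + 1 ≤ 2 * t0 + 1 + 2 * B by omega),
                mul_assoc]; exact dvd_mul_right _ _)
      exact hlt.not_ge (hq1.dvd_factorial.1 this)
    obtain ⟨y, hy⟩ := hq1.odd_of_ne_two (by omega)
    rw [hy, show 2 * y + 1 = 2 * B + 1 + 2 * (y - B) by omega]
    exact Finset.dvd_prod_of_mem _ (Finset.mem_range.2 (by omega))
  have hcop : u.Coprime C := Nat.coprime_of_dvd fun q hq hqu hqC => by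
    have h1 := hq.dvd_factorial.1 (hqu.trans ⟨2 ^ v, by rw [← hum]; ring⟩ : q ∣ m.factorial)
    have := hbig q hq hqC
    omega
  have hle : u * C ≤ O :=
    Nat.le_of_dvd (Finset.prod_pos fun i _ => by omega) (hcop.mul_dvd_of_dvd_of_dvd huO hCO)
  have hid : C * (2 * t0 + 1).factorial = 2 ^ t0 * (B + 1).ascFactorial t0 * O := by
    rw [hO, hm, ← ascFactorial_split]
    refine Nat.eq_of_mul_eq_mul_left (Nat.factorial_pos (2 * B)) ?_
    rw [Nat.factorial_mul_ascFactorial, hC]
    have h3 := Nat.choose_mul_factorial_mul_factorial (show 2 * t0 + 1 ≤ 2 * t0 + 1 + 2 * B by omega)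
    rw [Nat.add_sub_cancel_left] at h3
    rw [show 2 * B + (2 * t0 + 1) = 2 * t0 + 1 + 2 * B by omega, ← h3]
    ring
  have hX0 : m.factorial * (m + 1).ascFactorial t0 = (2 * t0 + 1).factorial := by
    rw [Nat.factorial_mul_ascFactorial]
    congr 1
    omega
  obtain ⟨hv1, hv2⟩ := factorization_factorial_two m (by omega)
  set X := (B + 1).ascFactorial t0
  set X0 := (m + 1).ascFactorial t0
  have hineq : 2 ^ t0 * X ≤ 2 ^ v * X0 := by
    have h1 : u * C * (2 ^ t0 * X) ≤ u * C * (2 ^ v * X0) := by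
      calc u * C * (2 ^ t0 * X) ≤ O * (2 ^ t0 * X) := Nat.mul_le_mul_right _ hle
        _ = C * (2 * t0 + 1).factorial := by rw [hid]; ring
        _ = u * C * (2 ^ v * X0) := by rw [← hX0, ← hum]; ring
    exact Nat.le_of_mul_le_mul_left h1 (Nat.mul_pos (Nat.pos_of_ne_zero fun h0 => by
      rw [h0] at huodd; exact absurd huodd (by decide)) hCpos)
  have hpow : 2 ^ v ≤ 2 ^ t0 := Nat.pow_le_pow_right two_pos (by omega)
  have hBm : B = m := by
    by_contra hne
    have h1 : X0 < X := ascFactorial_strict (by omega) (by omega) t0 (by omega)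
    have h2 : 2 ^ v * X0 ≤ 2 ^ t0 * X0 := Nat.mul_le_mul_right _ hpow
    have h3 : 2 ^ t0 * X0 < 2 ^ t0 * X := (Nat.mul_lt_mul_left (pow_pos two_pos _)).2 h1
    omega
  have hvt : t0 ≤ v := by
    rw [show X = X0 from by simp only [X, X0, hBm]] at hineq
    exact (Nat.pow_le_pow_iff_right (le_refl 2)).1
      (Nat.le_of_mul_le_mul_right hineq (Nat.ascFactorial_pos _ _))
  obtain ⟨s, hs⟩ := hv2 (by omega)
  rcases Nat.lt_or_ge s 2 with hs2 | hs2
  · interval_cases s
    · omega
    · exact ⟨by omega, by omega⟩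
  exfalso
  have h4 : 4 ≤ 2 ^ s := le_trans (by norm_num) (Nat.pow_le_pow_right two_pos hs2)
  have hodd : Odd (2 ^ s + 1) := (Nat.even_pow.2 ⟨even_two, by omega⟩).add_one
  obtain ⟨q, i, hq, hi, hM5, hMd⟩ : ∃ q i, q.Prime ∧ 1 ≤ i ∧ 5 ≤ q ^ i ∧ q ^ i ∣ 2 ^ s + 1 := by
    by_cases h3 : ∃ q, q.Prime ∧ 5 ≤ q ∧ q ∣ 2 ^ s + 1
    · obtain ⟨q, hq, h5, hd⟩ := h3
      exact ⟨q, 1, hq, le_rfl, by rw [pow_one]; exact h5, by rw [pow_one]; exact hd⟩
    · have hthree : ∀ {d : ℕ}, d.Prime → d ∣ 2 ^ s + 1 → d = 3 := fun {d} hd hdd => by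
        have hd5 : d < 5 := not_le.1 fun h5 => h3 ⟨d, hd, h5, hdd⟩
        obtain ⟨y, hy⟩ := hodd.of_dvd_nat hdd
        have := hd.two_le
        omega
      have hpw := Nat.eq_prime_pow_of_unique_prime_dvd (by omega : 2 ^ s + 1 ≠ 0) hthree
      refine ⟨3, 2, Nat.prime_three, by norm_num, by norm_num, ?_⟩
      refine (pow_dvd_pow 3 ?_).trans (dvd_of_eq hpw.symm)
      rcases Nat.lt_or_ge (2 ^ s + 1).primeFactorsList.length 2 with hl | hl
      · have := Nat.pow_le_pow_right (show 1 ≤ 3 by norm_num) (Nat.le_of_lt_succ hl)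
        omega
      · exact hl
  obtain ⟨k, hk⟩ := hMd
  refine h q hq ?_ (dvd_choose_of_carry hq hi ?_)
  · have : q ≤ q ^ i := Nat.le_self_pow (by omega) q
    have : q ^ i ≤ 2 ^ s + 1 := Nat.le_of_dvd (by omega) ⟨k, hk⟩
    omega
  · set M := q ^ i
    have hk0 : 1 ≤ 2 * k := by
      rcases Nat.eq_zero_or_pos k with rfl | hp
      · simp at hk
      · omega
    obtain ⟨K, hK⟩ : ∃ K, 2 * k = K + 1 := ⟨2 * k - 1, by omega⟩
    have e : M * (2 * k) = 2 * (M * k) := by ring
    rw [hK, mul_add, mul_one] at e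
    rw [show 2 * t0 + 1 = (M - 3) + M * K by omega, show 2 * B = (M - 2) + M * K by omega,
      Nat.add_mul_mod_self_left, Nat.add_mul_mod_self_left, Nat.mod_eq_of_lt (by omega),
      Nat.mod_eq_of_lt (by omega)]
    omega

end Cfsg.Agent.Arith.BinomialSmallPrime
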